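import Cfsg.Agent.H9.C11.G2
import Cfsg.Agent.L.X0

/-! A group containing `L₂(11)` and the plane rotation of order three contains the plane half-turn. -/

set_option autoImplicit false
set_option linter.unusedSimpArgs false
set_option linter.unusedSectionVars false
set_option linter.unusedVariables false

namespace Cfsg.Agent.H9.C11

open Matrix Cfsg.Agent.H5.T3 Cfsg.Agent.L.X11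
open Cfsg.Agent.H5.C11 (FH)

variable {F : Type*} [Field F] {g : F}

def k64 : MZ := !![⟨-8,-8⟩, ⟨0,0⟩, ⟨0,0⟩, ⟨-32,-8⟩, ⟨-4,4⟩; ⟨0,0⟩, ⟨64,0⟩, ⟨0,0⟩, ⟨0,0⟩, ⟨0,0⟩; ⟨0,0⟩, ⟨0,0⟩, ⟨64,0⟩, ⟨0,0⟩, ⟨0,0⟩; ⟨-16,-16⟩, ⟨0,0⟩, ⟨0,0⟩, ⟨32,16⟩, ⟨24,-24⟩; ⟨-80,-16⟩, ⟨0,0⟩, ⟨0,0⟩, ⟨48,0⟩, ⟨-24,-8⟩]
def K64 : MZ := !![⟨-8,8⟩, ⟨0,0⟩, ⟨0,0⟩, ⟨-4,-4⟩, ⟨-32,8⟩; ⟨0,0⟩, ⟨64,0⟩, ⟨0,0⟩, ⟨0,0⟩, ⟨0,0⟩; ⟨0,0⟩, ⟨0,0⟩, ⟨64,0⟩, ⟨0,0⟩, ⟨0,0⟩; ⟨-80,16⟩, ⟨0,0⟩, ⟨0,0⟩, ⟨-24,8⟩, ⟨48,0⟩; ⟨-16,16⟩, ⟨0,0⟩, ⟨0,0⟩, ⟨24,24⟩, ⟨32,-16⟩]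
def w64 : MZ := !![⟨-40,0⟩, ⟨0,0⟩, ⟨0,0⟩, ⟨-10,2⟩, ⟨30,6⟩; ⟨0,0⟩, ⟨64,0⟩, ⟨0,0⟩, ⟨0,0⟩, ⟨0,0⟩; ⟨0,0⟩, ⟨0,0⟩, ⟨64,0⟩, ⟨0,0⟩, ⟨0,0⟩; ⟨-48,0⟩, ⟨0,0⟩, ⟨0,0⟩, ⟨84,-4⟩, ⟨-60,-12⟩; ⟨-64,16⟩, ⟨0,0⟩, ⟨0,0⟩, ⟨12,-12⟩, ⟨-60,4⟩]

def Q (hg : g * g = -11) (G : Subgroup (GL (Fin 5) F)) (k : ℕ) (X : MZ) : Prop := ∃ A ∈ G, Rp hg A k X

def Q0 {n : ℕ} (φ : ZMod n →+* F) (G : Subgroup (GL (Fin 5) F)) (X : Matrix (Fin 5) (Fin 5) (ZMod n)) : Prop :=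
  InM G (X.map φ)

variable {hg : g * g = -11} {G : Subgroup (GL (Fin 5) F)}

theorem Q.step (h2 : (2 : F) ≠ 0) {k l m j : ℕ} {X Y Z : MZ} (a : Q hg G k X) (b : Q hg G l Y)
    (e : k + l = j + m) (d : X * Y = (2 : ZG) ^ j • Z) : Q hg G m Z :=
  let ⟨_, a1, a2⟩ := a; let ⟨_, b1, b2⟩ := b; ⟨_, mul_mem a1 b1, a2.step h2 b2 e d⟩

theorem Q.inv (h2 : (2 : F) ≠ 0) {k l : ℕ} {X Y : MZ} (a : Q hg G k X) (d : X * Y = (2 : ZG) ^ (k + l) • 1) :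
    Q hg G l Y :=
  let ⟨_, a1, a2⟩ := a; ⟨_, inv_mem a1, a2.inv h2 d⟩

theorem Q.red (h2 : (2 : F) ≠ 0) {n : ℕ} (φ : ZMod n →+* F) {g0 : ZMod n} (e : φ g0 = g) {k : ℕ} {X : MZ}
    (a : Q hg G k X) {Z : Matrix (Fin 5) (Fin 5) (ZMod n)}
    (d : ∀ i j, ((X i j).re : ZMod n) + (X i j).im * g0 = 2 ^ k * Z i j) : Q0 φ G Z := by
  obtain ⟨A, a1, a2⟩ := a
  refine ⟨A, a1, smul_right_injective _ (pow_ne_zero k h2) (a2.trans ?_)⟩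
  ext i j
  simpa [ev, e, map_ofNat] using congrArg φ (d i j)

theorem Q0.up {n : ℕ} (φ : ZMod n →+* F) {g0 : ZMod n} (e : φ g0 = g) {X : MZ}
    {Z : Matrix (Fin 5) (Fin 5) (ZMod n)} (a : Q0 φ G Z)
    (d : ∀ i j, ((X i j).re : ZMod n) + (X i j).im * g0 = 2 ^ 0 * Z i j) : Q hg G 0 X := by
  obtain ⟨A, a1, a2⟩ := a
  refine ⟨A, a1, Rp.zero.2 (a2.trans ?_)⟩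
  ext i j
  simpa [ev, e] using (congrArg φ (d i j)).symm

theorem Q0.step {n : ℕ} {φ : ZMod n →+* F} {X Y Z : Matrix (Fin 5) (Fin 5) (ZMod n)} (a : Q0 φ G X)
    (b : Q0 φ G Y) (d : X * Y = Z) : Q0 φ G Z :=
  (InM.mul a b).congr (by rw [← Matrix.map_mul, d])

theorem Q0.inv {n : ℕ} {φ : ZMod n →+* F} {X Y : Matrix (Fin 5) (Fin 5) (ZMod n)} (a : Q0 φ G X)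
    (d : X * Y = 1) : Q0 φ G Y :=
  InM.inv a (by rw [← Matrix.map_mul, d, Matrix.map_one _ (map_zero _) (map_one _)])

theorem q_t (h2 : (2 : F) ≠ 0) (hu : Q hg G 4 u16) (hU : Q hg G 4 U16) (hf : Q hg G 0 fZ) : Q hg G 3 t8 := by
  have ht0 := Q.step h2 (j := 0) (m := 4) (Z := !![⟨-6,2⟩, ⟨-4,0⟩, ⟨-6,-2⟩, ⟨0,2⟩, ⟨1,-1⟩; ⟨6,2⟩, ⟨6,-2⟩, ⟨4,0⟩, ⟨1,1⟩, ⟨0,-2⟩; ⟨-4,0⟩, ⟨-6,-2⟩, ⟨-6,2⟩, ⟨1,-1⟩, ⟨-1,-1⟩; ⟨-8,0⟩, ⟨4,-4⟩, ⟨4,4⟩, ⟨-2,2⟩, ⟨2,2⟩; ⟨-4,4⟩, ⟨-4,-4⟩, ⟨8,0⟩, ⟨-2,-2⟩, ⟨0,4⟩]) hu hf rfl (by decide +kernel)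
  have ht1 := Q.step h2 (j := 4) (m := 4) (Z := !![⟨4,0⟩, ⟨6,2⟩, ⟨-2,-2⟩, ⟨5,-1⟩, ⟨-3,1⟩; ⟨6,-2⟩, ⟨4,0⟩, ⟨2,-2⟩, ⟨-2,0⟩, ⟨-3,-1⟩; ⟨-2,2⟩, ⟨2,2⟩, ⟨-4,0⟩, ⟨-9,-1⟩, ⟨0,2⟩; ⟨16,0⟩, ⟨-16,0⟩, ⟨-16,0⟩, ⟨0,0⟩, ⟨0,0⟩; ⟨4,-4⟩, ⟨-12,4⟩, ⟨-8,0⟩, ⟨-6,2⟩, ⟨12,0⟩]) ht0 hU rfl (by decide +kernel)
  have ht2 := Q.step h2 (j := 4) (m := 4) (Z := !![⟨-6,-2⟩, ⟨-2,-2⟩, ⟨4,0⟩, ⟨3,-1⟩, ⟨2,0⟩; ⟨-4,0⟩, ⟨2,-2⟩, ⟨6,-2⟩, ⟨3,1⟩, ⟨-5,-1⟩; ⟨2,2⟩, ⟨4,0⟩, ⟨2,-2⟩, ⟨0,2⟩, ⟨9,-1⟩; ⟨-16,0⟩, ⟨16,0⟩, ⟨-16,0⟩, ⟨0,0⟩, ⟨0,0⟩; ⟨-12,4⟩, ⟨8,0⟩, ⟨-4,4⟩, ⟨12,0⟩, ⟨-6,-2⟩]) ht1 hU rfl (by decide +kernel)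
  have ht3 := Q.step h2 (j := 4) (m := 4) (Z := !![⟨-4,0⟩, ⟨-10,2⟩, ⟨2,2⟩, ⟨-3,-1⟩, ⟨-3,1⟩; ⟨6,-2⟩, ⟨-4,0⟩, ⟨2,-2⟩, ⟨2,0⟩, ⟨-5,1⟩; ⟨2,-2⟩, ⟨2,2⟩, ⟨4,0⟩, ⟨7,-1⟩, ⟨-4,-2⟩; ⟨4,4⟩, ⟨-8,0⟩, ⟨4,-4⟩, ⟨0,-4⟩, ⟨-2,2⟩; ⟨16,0⟩, ⟨0,0⟩, ⟨0,0⟩, ⟨-12,-4⟩, ⟨4,4⟩]) ht2 hU rfl (by decide +kernel)
  have ht4 := Q.step h2 (j := 4) (m := 4) (Z := !![⟨2,2⟩, ⟨4,0⟩, ⟨-2,2⟩, ⟨-4,2⟩, ⟨7,1⟩; ⟨-6,-2⟩, ⟨-2,-2⟩, ⟨-4,0⟩, ⟨5,1⟩, ⟨-2,0⟩; ⟨-4,0⟩, ⟨2,-2⟩, ⟨10,2⟩, ⟨-3,-1⟩, ⟨-3,1⟩; ⟨-12,-4⟩, ⟨4,4⟩, ⟨8,0⟩, ⟨-6,2⟩, ⟨12,0⟩; ⟨-16,0⟩, ⟨0,0⟩, ⟨0,0⟩, ⟨-4,4⟩, ⟨12,-4⟩]) ht3 hU rfl (by decide +kernel)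
  have ht5 := Q.step h2 (j := 0) (m := 4) (Z := !![⟨2,2⟩, ⟨-4,0⟩, ⟨2,-2⟩, ⟨-4,2⟩, ⟨7,1⟩; ⟨-6,-2⟩, ⟨2,2⟩, ⟨4,0⟩, ⟨5,1⟩, ⟨-2,0⟩; ⟨-4,0⟩, ⟨-2,2⟩, ⟨-10,-2⟩, ⟨-3,-1⟩, ⟨-3,1⟩; ⟨-12,-4⟩, ⟨-4,-4⟩, ⟨-8,0⟩, ⟨-6,2⟩, ⟨12,0⟩; ⟨-16,0⟩, ⟨0,0⟩, ⟨0,0⟩, ⟨-4,4⟩, ⟨12,-4⟩]) ht4 hf rfl (by decide +kernel)
  have ht := Q.step h2 (j := 5) (m := 3) (Z := t8) ht5 hu rfl (by decide +kernel)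
  exact ht

theorem q_z (h2 : (2 : F) ≠ 0) (hu : Q hg G 4 u16) (hU : Q hg G 4 U16) (hf : Q hg G 0 fZ) : Q hg G 0 z2Z := by
  have hz0 := Q.step h2 (j := 4) (m := 4) (Z := !![⟨2,-2⟩, ⟨-6,2⟩, ⟨4,0⟩, ⟨-5,-1⟩, ⟨2,0⟩; ⟨-4,0⟩, ⟨2,-2⟩, ⟨2,2⟩, ⟨-9,1⟩, ⟨9,1⟩; ⟨2,2⟩, ⟨4,0⟩, ⟨-6,-2⟩, ⟨-2,0⟩, ⟨5,-1⟩; ⟨-8,0⟩, ⟨-12,-4⟩, ⟨-4,-4⟩, ⟨-6,-2⟩, ⟨-6,2⟩; ⟨-16,0⟩, ⟨-16,0⟩, ⟨-16,0⟩, ⟨0,0⟩, ⟨0,0⟩]) hu hu rfl (by decide +kernel)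
  have hz1 := Q.step h2 (j := 4) (m := 4) (Z := !![⟨-2,2⟩, ⟨6,-2⟩, ⟨4,0⟩, ⟨3,-1⟩, ⟨2,0⟩; ⟨4,0⟩, ⟨-2,2⟩, ⟨2,2⟩, ⟨3,-3⟩, ⟨-7,1⟩; ⟨2,2⟩, ⟨4,0⟩, ⟨-10,2⟩, ⟨-6,0⟩, ⟨3,1⟩; ⟨4,-4⟩, ⟨12,-4⟩, ⟨-8,0⟩, ⟨6,-2⟩, ⟨-12,0⟩; ⟨4,-4⟩, ⟨-4,-4⟩, ⟨-8,0⟩, ⟨-2,-2⟩, ⟨0,4⟩]) hz0 hu rfl (by decide +kernel)
  have hz2 := Q.step h2 (j := 5) (m := 3) (Z := !![⟨0,0⟩, ⟨2,2⟩, ⟨-4,0⟩, ⟨0,0⟩, ⟨0,0⟩; ⟨-4,0⟩, ⟨0,0⟩, ⟨0,0⟩, ⟨3,1⟩, ⟨3,-1⟩; ⟨0,0⟩, ⟨-4,0⟩, ⟨-2,2⟩, ⟨0,0⟩, ⟨0,0⟩; ⟨8,0⟩, ⟨0,0⟩, ⟨0,0⟩, ⟨6,2⟩, ⟨-2,-2⟩; ⟨0,0⟩, ⟨0,0⟩, ⟨0,0⟩, ⟨8,0⟩, ⟨-8,0⟩]) hz1 hu rfl (by decide +kernel)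
  have hz3 := Q.step h2 (j := 0) (m := 3) (Z := !![⟨0,0⟩, ⟨-2,-2⟩, ⟨4,0⟩, ⟨0,0⟩, ⟨0,0⟩; ⟨-4,0⟩, ⟨0,0⟩, ⟨0,0⟩, ⟨3,1⟩, ⟨3,-1⟩; ⟨0,0⟩, ⟨4,0⟩, ⟨2,-2⟩, ⟨0,0⟩, ⟨0,0⟩; ⟨8,0⟩, ⟨0,0⟩, ⟨0,0⟩, ⟨6,2⟩, ⟨-2,-2⟩; ⟨0,0⟩, ⟨0,0⟩, ⟨0,0⟩, ⟨8,0⟩, ⟨-8,0⟩]) hz2 hf rfl (by decide +kernel)
  have hz4 := Q.step h2 (j := 3) (m := 4) (Z := !![⟨2,-2⟩, ⟨-6,2⟩, ⟨-4,0⟩, ⟨-3,1⟩, ⟨-2,0⟩; ⟨4,0⟩, ⟨-2,2⟩, ⟨2,2⟩, ⟨3,-3⟩, ⟨-7,1⟩; ⟨-2,-2⟩, ⟨-4,0⟩, ⟨10,-2⟩, ⟨6,0⟩, ⟨-3,-1⟩; ⟨4,-4⟩, ⟨12,-4⟩, ⟨-8,0⟩, ⟨6,-2⟩, ⟨-12,0⟩; ⟨4,-4⟩, ⟨-4,-4⟩, ⟨-8,0⟩, ⟨-2,-2⟩, ⟨0,4⟩]) hz3 hU rfl (by decide +kernel)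
  have hz5 := Q.step h2 (j := 4) (m := 4) (Z := !![⟨-2,2⟩, ⟨6,-2⟩, ⟨-4,0⟩, ⟨5,1⟩, ⟨-2,0⟩; ⟨-4,0⟩, ⟨2,-2⟩, ⟨2,2⟩, ⟨-9,1⟩, ⟨9,1⟩; ⟨-2,-2⟩, ⟨-4,0⟩, ⟨6,2⟩, ⟨2,0⟩, ⟨-5,1⟩; ⟨-8,0⟩, ⟨-12,-4⟩, ⟨-4,-4⟩, ⟨-6,-2⟩, ⟨-6,2⟩; ⟨-16,0⟩, ⟨-16,0⟩, ⟨-16,0⟩, ⟨0,0⟩, ⟨0,0⟩]) hz4 hU rfl (by decide +kernel)
  have hz6 := Q.step h2 (j := 4) (m := 4) (Z := !![⟨6,-2⟩, ⟨-4,0⟩, ⟨-6,-2⟩, ⟨0,-2⟩, ⟨-1,1⟩; ⟨6,2⟩, ⟨-6,2⟩, ⟨-4,0⟩, ⟨1,1⟩, ⟨0,-2⟩; ⟨4,0⟩, ⟨-6,-2⟩, ⟨-6,2⟩, ⟨-1,1⟩, ⟨1,1⟩; ⟨-8,0⟩, ⟨-4,4⟩, ⟨-4,-4⟩, ⟨-2,2⟩, ⟨2,2⟩; ⟨-4,4⟩, ⟨4,4⟩, ⟨-8,0⟩, ⟨-2,-2⟩, ⟨0,4⟩]) hz5 hU rfl (by decide +kernel)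
  have hz := Q.step h2 (j := 8) (m := 0) (Z := z2Z) hz6 hU rfl (by decide +kernel)
  exact hz

theorem s3a (h2 : (2 : F) ≠ 0) (φ : ZMod 3 →+* F) (e : φ 1 = g) (hu : Q hg G 4 u16) (hU : Q hg G 4 U16)
    (hf : Q hg G 0 fZ) (hx : Q hg G 0 xZ) : Q hg G 0 RZ := by
  have u := Q.red h2 φ e hu (Z := !![2, 1, 2, 2, 0; 2, 2, 2, 2, 1; 2, 2, 1, 0, 1; 1, 0, 1, 0, 1; 0, 2, 1, 2, 1]) (by decide +kernel)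
  have U := Q.red h2 φ e hU (Z := !![1, 1, 2, 2, 1; 1, 1, 1, 0, 1; 1, 2, 2, 2, 0; 1, 1, 0, 2, 0; 1, 0, 2, 0, 2]) (by decide +kernel)
  have x := Q.red h2 φ e hx (Z := !![1, 0, 0, 0, 0; 0, 1, 0, 0, 0; 0, 0, 1, 0, 0; 0, 0, 0, 0, 2; 0, 0, 0, 1, 2]) (by decide +kernel)
  have f := Q.red h2 φ e hf (Z := !![1, 0, 0, 0, 0; 0, 2, 0, 0, 0; 0, 0, 2, 0, 0; 0, 0, 0, 1, 0; 0, 0, 0, 0, 1]) (by decide +kernel)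
  have W0 := Q0.step U U (Z := !![1, 2, 0, 1, 1; 1, 1, 1, 1, 1; 1, 0, 2, 1, 0; 1, 1, 0, 0, 2; 2, 2, 1, 0, 2]) (by decide +kernel)
  have W1 := Q0.step W0 x (Z := !![1, 2, 0, 1, 1; 1, 1, 1, 1, 1; 1, 0, 2, 0, 2; 1, 1, 0, 2, 1; 2, 2, 1, 2, 1]) (by decide +kernel)
  have W2 := Q0.step W1 u (Z := !![1, 1, 2, 2, 1; 1, 1, 1, 0, 1; 0, 0, 0, 0, 1; 0, 2, 1, 0, 1; 0, 1, 0, 1, 0]) (by decide +kernel)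
  have W3 := Q0.step W2 u (Z := !![1, 0, 0, 0, 0; 0, 1, 0, 0, 0; 0, 2, 1, 2, 1; 0, 2, 0, 0, 1; 0, 2, 0, 2, 2]) (by decide +kernel)
  have W4 := Q0.step W3 x (Z := !![1, 0, 0, 0, 0; 0, 1, 0, 0, 0; 0, 2, 1, 1, 0; 0, 2, 0, 1, 2; 0, 2, 0, 2, 2]) (by decide +kernel)
  have W5 := Q0.step W4 f (Z := !![1, 0, 0, 0, 0; 0, 2, 0, 0, 0; 0, 1, 2, 1, 0; 0, 1, 0, 1, 2; 0, 1, 0, 2, 2]) (by decide +kernel)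
  have W6 := Q0.step W5 U (Z := !![1, 1, 2, 2, 1; 2, 2, 2, 0, 2; 1, 0, 2, 0, 1; 1, 2, 2, 2, 2; 2, 0, 2, 1, 2]) (by decide +kernel)
  have W7 := Q0.step W6 U (Z := !![1, 2, 0, 1, 1; 2, 2, 2, 2, 2; 1, 2, 2, 0, 0; 0, 0, 0, 1, 1; 1, 1, 0, 1, 0]) (by decide +kernel)
  have V := Q0.inv W7 (Y := !![0, 1, 2, 1, 0; 2, 1, 2, 2, 0; 1, 0, 2, 2, 0; 1, 1, 2, 0, 1; 2, 2, 1, 1, 2]) (by decide +kernel)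
  have a := Q0.step x W7 (Z := !![1, 2, 0, 1, 1; 2, 2, 2, 2, 2; 1, 2, 2, 0, 0; 2, 2, 0, 2, 0; 2, 2, 0, 0, 1]) (by decide +kernel)
  have b := Q0.step a x (Z := !![1, 2, 0, 1, 1; 2, 2, 2, 2, 2; 1, 2, 2, 0, 0; 2, 2, 0, 0, 1; 2, 2, 0, 1, 2]) (by decide +kernel)
  have c := Q0.step b V (Z := !![1, 0, 0, 0, 0; 0, 1, 0, 0, 0; 0, 0, 1, 0, 0; 0, 0, 0, 1, 2; 0, 0, 0, 2, 2]) (by decide +kernel)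
  have r := Q0.step c c (Z := !![1, 0, 0, 0, 0; 0, 1, 0, 0, 0; 0, 0, 1, 0, 0; 0, 0, 0, 2, 0; 0, 0, 0, 0, 2]) (by decide +kernel)
  exact Q0.up φ e r (X := RZ) (by decide +kernel)

theorem s3b (h2 : (2 : F) ≠ 0) (φ : ZMod 3 →+* F) (e : φ (-1) = g) (hu : Q hg G 4 u16) (hU : Q hg G 4 U16)
    (hf : Q hg G 0 fZ) (hx : Q hg G 0 xZ) : Q hg G 0 RZ := by
  have u := Q.red h2 φ e hu (Z := !![1, 1, 1, 1, 2; 1, 1, 2, 0, 2; 2, 1, 2, 2, 0; 1, 1, 0, 2, 0; 1, 0, 1, 0, 2]) (by decide +kernel)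
  have U := Q.red h2 φ e hU (Z := !![2, 2, 2, 0, 2; 1, 2, 2, 2, 0; 2, 2, 1, 1, 2; 0, 1, 1, 1, 2; 1, 1, 0, 1, 0]) (by decide +kernel)
  have x := Q.red h2 φ e hx (Z := !![1, 0, 0, 0, 0; 0, 1, 0, 0, 0; 0, 0, 1, 0, 0; 0, 0, 0, 0, 2; 0, 0, 0, 1, 2]) (by decide +kernel)
  have f := Q.red h2 φ e hf (Z := !![1, 0, 0, 0, 0; 0, 2, 0, 0, 0; 0, 0, 2, 0, 0; 0, 0, 0, 1, 0; 0, 0, 0, 0, 1]) (by decide +kernel)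
  have W0 := Q0.step U U (Z := !![0, 2, 1, 2, 2; 2, 0, 1, 2, 1; 1, 1, 1, 2, 2; 2, 1, 1, 0, 1; 0, 2, 2, 0, 1]) (by decide +kernel)
  have W1 := Q0.step W0 x (Z := !![0, 2, 1, 2, 2; 2, 0, 1, 1, 0; 1, 1, 1, 2, 2; 2, 1, 1, 1, 2; 0, 2, 2, 1, 2]) (by decide +kernel)
  have W2 := Q0.step W1 u (Z := !![2, 2, 2, 0, 2; 2, 1, 1, 0, 1; 2, 2, 1, 1, 2; 2, 2, 2, 0, 1; 0, 2, 1, 0, 2]) (by decide +kernel)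
  have W3 := Q0.step W2 u (Z := !![1, 0, 0, 0, 0; 0, 1, 1, 1, 2; 0, 0, 1, 0, 0; 0, 0, 2, 0, 1; 0, 0, 2, 2, 2]) (by decide +kernel)
  have W4 := Q0.step W3 x (Z := !![1, 0, 0, 0, 0; 0, 1, 1, 2, 0; 0, 0, 1, 0, 0; 0, 0, 2, 1, 2; 0, 0, 2, 2, 2]) (by decide +kernel)
  have W5 := Q0.step W4 f (Z := !![1, 0, 0, 0, 0; 0, 2, 2, 2, 0; 0, 0, 2, 0, 0; 0, 0, 1, 1, 2; 0, 0, 1, 2, 2]) (by decide +kernel)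
  have W6 := Q0.step W5 U (Z := !![2, 2, 2, 0, 2; 0, 1, 2, 2, 2; 1, 1, 2, 2, 1; 1, 2, 2, 1, 1; 1, 0, 0, 2, 0]) (by decide +kernel)
  have W7 := Q0.step W6 U (Z := !![0, 2, 1, 2, 2; 1, 1, 0, 2, 2; 2, 2, 2, 1, 1; 0, 0, 0, 2, 2; 2, 1, 1, 2, 0]) (by decide +kernel)
  have V := Q0.inv W7 (Y := !![1, 2, 1, 1, 0; 2, 2, 2, 1, 0; 0, 2, 2, 0, 0; 1, 2, 0, 0, 2; 2, 1, 0, 2, 1]) (by decide +kernel)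
  have a := Q0.step x W7 (Z := !![0, 2, 1, 2, 2; 1, 1, 0, 2, 2; 2, 2, 2, 1, 1; 1, 2, 2, 1, 0; 1, 2, 2, 0, 2]) (by decide +kernel)
  have b := Q0.step a x (Z := !![0, 2, 1, 2, 2; 1, 1, 0, 2, 2; 2, 2, 2, 1, 1; 1, 2, 2, 0, 2; 1, 2, 2, 2, 1]) (by decide +kernel)
  have c := Q0.step b V (Z := !![1, 0, 0, 0, 0; 0, 1, 0, 0, 0; 0, 0, 1, 0, 0; 0, 0, 0, 1, 2; 0, 0, 0, 2, 2]) (by decide +kernel)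
  have r := Q0.step c c (Z := !![1, 0, 0, 0, 0; 0, 1, 0, 0, 0; 0, 0, 1, 0, 0; 0, 0, 0, 2, 0; 0, 0, 0, 0, 2]) (by decide +kernel)
  exact Q0.up φ e r (X := RZ) (by decide +kernel)

theorem s31a (h2 : (2 : F) ≠ 0) (φ : ZMod 31 →+* F) (e : φ 12 = g) (ht : Q hg G 3 t8) (hT : Q hg G 3 T8)
    (hz : Q hg G 0 z2Z) (hx : Q hg G 0 xZ) : Q hg G 0 RZ := by
  have t := Q.red h2 φ e ht (Z := !![15, 0, 0, 2, 5; 0, 15, 5, 0, 0; 0, 20, 15, 0, 0; 1, 0, 0, 5, 10; 1, 0, 0, 4, 11]) (by decide +kernel)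
  have T := Q.red h2 φ e hT (Z := !![15, 0, 0, 29, 26; 0, 15, 26, 0, 0; 0, 11, 15, 0, 0; 30, 0, 0, 5, 10; 30, 0, 0, 4, 11]) (by decide +kernel)
  have x := Q.red h2 φ e hx (Z := !![1, 0, 0, 0, 0; 0, 1, 0, 0, 0; 0, 0, 1, 0, 0; 0, 0, 0, 0, 30; 0, 0, 0, 1, 30]) (by decide +kernel)
  have z := Q.red h2 φ e hz (Z := !![30, 0, 0, 0, 0; 0, 1, 0, 0, 0; 0, 0, 30, 0, 0; 0, 0, 0, 1, 0; 0, 0, 0, 0, 1]) (by decide +kernel)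
  have a1 := Q0.step t x (Z := !![15, 0, 0, 5, 24; 0, 15, 5, 0, 0; 0, 20, 15, 0, 0; 1, 0, 0, 10, 16; 1, 0, 0, 11, 16]) (by decide +kernel)
  have a := Q0.step a1 T (Z := !![10, 0, 0, 29, 22; 0, 1, 0, 0, 0; 0, 0, 1, 0, 0; 20, 0, 0, 19, 23; 19, 0, 0, 24, 2]) (by decide +kernel)
  have b1 := Q0.step T x (Z := !![15, 0, 0, 26, 7; 0, 15, 26, 0, 0; 0, 11, 15, 0, 0; 30, 0, 0, 10, 16; 30, 0, 0, 11, 16]) (by decide +kernel)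
  have b := Q0.step b1 t (Z := !![10, 0, 0, 2, 9; 0, 1, 0, 0, 0; 0, 0, 1, 0, 0; 11, 0, 0, 19, 23; 12, 0, 0, 24, 2]) (by decide +kernel)
  have k := Q0.step a b (Z := !![1, 0, 0, 14, 26; 0, 1, 0, 0, 0; 0, 0, 1, 0, 0; 3, 0, 0, 23, 12; 13, 0, 0, 15, 14]) (by decide +kernel)
  have K := Q0.inv k (Y := !![18, 0, 0, 8, 4; 0, 1, 0, 0, 0; 0, 0, 1, 0, 0; 21, 0, 0, 17, 4; 25, 0, 0, 12, 12]) (by decide +kernel)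
  have w1 := Q0.step z k (Z := !![30, 0, 0, 17, 5; 0, 1, 0, 0, 0; 0, 0, 30, 0, 0; 3, 0, 0, 23, 12; 13, 0, 0, 15, 14]) (by decide +kernel)
  have w2 := Q0.step w1 z (Z := !![1, 0, 0, 17, 5; 0, 1, 0, 0, 0; 0, 0, 1, 0, 0; 28, 0, 0, 23, 12; 18, 0, 0, 15, 14]) (by decide +kernel)
  have w := Q0.step w2 K (Z := !![4, 0, 0, 16, 8; 0, 1, 0, 0, 0; 0, 0, 1, 0, 0; 16, 0, 0, 15, 7; 28, 0, 0, 9, 21]) (by decide +kernel)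
  have v2 := Q0.step w w (Z := !![0, 0, 0, 4, 2; 0, 1, 0, 0, 0; 0, 0, 1, 0, 0; 4, 0, 0, 17, 8; 7, 0, 0, 28, 15]) (by decide +kernel)
  have v4 := Q0.step v2 v2 (Z := !![30, 0, 0, 0, 0; 0, 1, 0, 0, 0; 0, 0, 1, 0, 0; 0, 0, 0, 2, 16; 0, 0, 0, 25, 29]) (by decide +kernel)
  have y1 := Q0.step x v4 (Z := !![30, 0, 0, 0, 0; 0, 1, 0, 0, 0; 0, 0, 1, 0, 0; 0, 0, 0, 6, 2; 0, 0, 0, 8, 18]) (by decide +kernel)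
  have y := Q0.step y1 y1 (Z := !![1, 0, 0, 0, 0; 0, 1, 0, 0, 0; 0, 0, 1, 0, 0; 0, 0, 0, 21, 17; 0, 0, 0, 6, 30]) (by decide +kernel)
  have y2 := Q0.step y y (Z := !![1, 0, 0, 0, 0; 0, 1, 0, 0, 0; 0, 0, 1, 0, 0; 0, 0, 0, 16, 30; 0, 0, 0, 27, 10]) (by decide +kernel)
  have y4 := Q0.step y2 y2 (Z := !![1, 0, 0, 0, 0; 0, 1, 0, 0, 0; 0, 0, 1, 0, 0; 0, 0, 0, 12, 5; 0, 0, 0, 20, 11]) (by decide +kernel)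
  have y8 := Q0.step y4 y4 (Z := !![1, 0, 0, 0, 0; 0, 1, 0, 0, 0; 0, 0, 1, 0, 0; 0, 0, 0, 27, 22; 0, 0, 0, 26, 4]) (by decide +kernel)
  have r := Q0.step y8 y8 (Z := !![1, 0, 0, 0, 0; 0, 1, 0, 0, 0; 0, 0, 1, 0, 0; 0, 0, 0, 30, 0; 0, 0, 0, 0, 30]) (by decide +kernel)
  exact Q0.up φ e r (X := RZ) (by decide +kernel)

theorem s31b (h2 : (2 : F) ≠ 0) (φ : ZMod 31 →+* F) (e : φ (-12) = g) (ht : Q hg G 3 t8) (hT : Q hg G 3 T8)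
    (hz : Q hg G 0 z2Z) (hx : Q hg G 0 xZ) : Q hg G 0 RZ := by
  have t := Q.red h2 φ e ht (Z := !![15, 0, 0, 5, 2; 0, 15, 11, 0, 0; 0, 26, 15, 0, 0; 1, 0, 0, 11, 4; 1, 0, 0, 10, 5]) (by decide +kernel)
  have T := Q.red h2 φ e hT (Z := !![15, 0, 0, 26, 29; 0, 15, 20, 0, 0; 0, 5, 15, 0, 0; 30, 0, 0, 11, 4; 30, 0, 0, 10, 5]) (by decide +kernel)
  have x := Q.red h2 φ e hx (Z := !![1, 0, 0, 0, 0; 0, 1, 0, 0, 0; 0, 0, 1, 0, 0; 0, 0, 0, 0, 30; 0, 0, 0, 1, 30]) (by decide +kernel)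
  have z := Q.red h2 φ e hz (Z := !![30, 0, 0, 0, 0; 0, 1, 0, 0, 0; 0, 0, 30, 0, 0; 0, 0, 0, 1, 0; 0, 0, 0, 0, 1]) (by decide +kernel)
  have a1 := Q0.step t x (Z := !![15, 0, 0, 2, 24; 0, 15, 11, 0, 0; 0, 26, 15, 0, 0; 1, 0, 0, 4, 16; 1, 0, 0, 5, 16]) (by decide +kernel)
  have a := Q0.step a1 T (Z := !![13, 0, 0, 1, 5; 0, 1, 0, 0, 0; 0, 0, 1, 0, 0; 26, 0, 0, 13, 1; 25, 0, 0, 24, 5]) (by decide +kernel)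
  have b1 := Q0.step T x (Z := !![15, 0, 0, 29, 7; 0, 15, 20, 0, 0; 0, 5, 15, 0, 0; 30, 0, 0, 4, 16; 30, 0, 0, 5, 16]) (by decide +kernel)
  have b := Q0.step b1 t (Z := !![13, 0, 0, 30, 26; 0, 1, 0, 0, 0; 0, 0, 1, 0, 0; 5, 0, 0, 13, 1; 6, 0, 0, 24, 5]) (by decide +kernel)
  have k := Q0.step a b (Z := !![18, 0, 0, 27, 23; 0, 1, 0, 0, 0; 0, 0, 1, 0, 0; 6, 0, 0, 12, 12; 10, 0, 0, 4, 17]) (by decide +kernel)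
  have K := Q0.inv k (Y := !![1, 0, 0, 5, 17; 0, 1, 0, 0, 0; 0, 0, 1, 0, 0; 18, 0, 0, 14, 15; 28, 0, 0, 12, 23]) (by decide +kernel)
  have w1 := Q0.step z k (Z := !![13, 0, 0, 4, 8; 0, 1, 0, 0, 0; 0, 0, 30, 0, 0; 6, 0, 0, 12, 12; 10, 0, 0, 4, 17]) (by decide +kernel)
  have w2 := Q0.step w1 z (Z := !![18, 0, 0, 4, 8; 0, 1, 0, 0, 0; 0, 0, 1, 0, 0; 25, 0, 0, 12, 12; 21, 0, 0, 4, 17]) (by decide +kernel)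
  have w := Q0.step w2 K (Z := !![4, 0, 0, 25, 23; 0, 1, 0, 0, 0; 0, 0, 1, 0, 0; 19, 0, 0, 3, 13; 11, 0, 0, 24, 2]) (by decide +kernel)
  have v2 := Q0.step w w (Z := !![0, 0, 0, 14, 29; 0, 1, 0, 0, 0; 0, 0, 1, 0, 0; 28, 0, 0, 21, 6; 26, 0, 0, 23, 11]) (by decide +kernel)
  have v4 := Q0.step v2 v2 (Z := !![30, 0, 0, 0, 0; 0, 1, 0, 0, 0; 0, 0, 1, 0, 0; 0, 0, 0, 10, 12; 0, 0, 0, 15, 21]) (by decide +kernel)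
  have y1 := Q0.step x v4 (Z := !![30, 0, 0, 0, 0; 0, 1, 0, 0, 0; 0, 0, 1, 0, 0; 0, 0, 0, 16, 10; 0, 0, 0, 26, 22]) (by decide +kernel)
  have y := Q0.step y1 y1 (Z := !![1, 0, 0, 0, 0; 0, 1, 0, 0, 0; 0, 0, 1, 0, 0; 0, 0, 0, 20, 8; 0, 0, 0, 27, 0]) (by decide +kernel)
  have y2 := Q0.step y y (Z := !![1, 0, 0, 0, 0; 0, 1, 0, 0, 0; 0, 0, 1, 0, 0; 0, 0, 0, 27, 5; 0, 0, 0, 13, 30]) (by decide +kernel)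
  have y4 := Q0.step y2 y2 (Z := !![1, 0, 0, 0, 0; 0, 1, 0, 0, 0; 0, 0, 1, 0, 0; 0, 0, 0, 19, 6; 0, 0, 0, 28, 4]) (by decide +kernel)
  have y8 := Q0.step y4 y4 (Z := !![1, 0, 0, 0, 0; 0, 1, 0, 0, 0; 0, 0, 1, 0, 0; 0, 0, 0, 2, 14; 0, 0, 0, 24, 29]) (by decide +kernel)
  have r := Q0.step y8 y8 (Z := !![1, 0, 0, 0, 0; 0, 1, 0, 0, 0; 0, 0, 1, 0, 0; 0, 0, 0, 30, 0; 0, 0, 0, 0, 30]) (by decide +kernel)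
  exact Q0.up φ e r (X := RZ) (by decide +kernel)

def E3 : Matrix (Fin 3) (Fin 3) F →* Matrix (Fin 5) (Fin 5) F where
  toFun A := !![A 0 0, 0, 0, A 0 1, A 0 2; 0, 1, 0, 0, 0; 0, 0, 1, 0, 0; A 1 0, 0, 0, A 1 1, A 1 2;
    A 2 0, 0, 0, A 2 1, A 2 2]
  map_one' := by ext i j; fin_cases i <;> fin_cases j <;> simp
  map_mul' A B := by
    ext i j; fin_cases i <;> fin_cases j <;> simp [mul_apply, Fin.sum_univ_five, Fin.sum_univ_three]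

theorem down {X : Matrix (Fin 3) (Fin 3) F} (h : InM G (E3 X)) : InM (G.comap (Units.map E3)) X := by
  obtain ⟨A, AG, e⟩ := h
  obtain ⟨B, k0⟩ : ∃ B, E3 X * B = 1 := ⟨_, e ▸ A.mul_inv⟩
  have k1 := fun i j => congrFun (congrFun k0 i) j
  have k : X * !![B 0 0, B 0 3, B 0 4; B 3 0, B 3 3, B 3 4; B 4 0, B 4 3, B 4 4] = 1 := by
    ext i j
    fin_cases i <;> fin_cases j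
    · simpa [E3, mul_apply, Fin.sum_univ_five, Fin.sum_univ_three] using k1 0 0
    · simpa [E3, mul_apply, Fin.sum_univ_five, Fin.sum_univ_three] using k1 0 3
    · simpa [E3, mul_apply, Fin.sum_univ_five, Fin.sum_univ_three] using k1 0 4
    · simpa [E3, mul_apply, Fin.sum_univ_five, Fin.sum_univ_three] using k1 3 0
    · simpa [E3, mul_apply, Fin.sum_univ_five, Fin.sum_univ_three] using k1 3 3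
    · simpa [E3, mul_apply, Fin.sum_univ_five, Fin.sum_univ_three] using k1 3 4
    · simpa [E3, mul_apply, Fin.sum_univ_five, Fin.sum_univ_three] using k1 4 0
    · simpa [E3, mul_apply, Fin.sum_univ_five, Fin.sum_univ_three] using k1 4 3
    · simpa [E3, mul_apply, Fin.sum_univ_five, Fin.sum_univ_three] using k1 4 4
  refine ⟨⟨X, _, k, mul_eq_one_comm.1 k⟩, ?_, rfl⟩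
  rw [Subgroup.mem_comap]
  convert AG
  exact Units.ext e.symm

theorem Q.inM {k : ℕ} {X : MZ} (a : Q hg G k X) {e : F} (he : 2 ^ k * e = 1) : InM G (e • X.map (ev hg)) := by
  obtain ⟨A, a1, a2⟩ := a
  exact ⟨A, a1, by rw [← show _ = _ from a2, smul_smul, mul_comm, he, one_smul]⟩

theorem gen {p : ℕ} {ω : F} (h : FH p ω) (h3 : (3 : F) ≠ 0) (h31 : (31 : F) ≠ 0) (ht : Q hg G 3 t8)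
    (hT : Q hg G 3 T8) (hz : Q hg G 0 z2Z) (hx : Q hg G 0 xZ) : Q hg G 0 RZ := by
  have h2 := h.two
  have a1 := Q.step h2 (j := 0) (m := 3) (Z := !![⟨-4,0⟩, ⟨0,0⟩, ⟨0,0⟩, ⟨-3,1⟩, ⟨6,0⟩; ⟨0,0⟩, ⟨-4,0⟩, ⟨2,-2⟩, ⟨0,0⟩, ⟨0,0⟩; ⟨0,0⟩, ⟨-2,-2⟩, ⟨-4,0⟩, ⟨0,0⟩, ⟨0,0⟩; ⟨8,0⟩, ⟨0,0⟩, ⟨0,0⟩, ⟨-6,2⟩, ⟨4,0⟩; ⟨8,0⟩, ⟨0,0⟩, ⟨0,0⟩, ⟨2,2⟩, ⟨4,0⟩]) ht hx rfl (by decide +kernel)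
  have hk := Q.step h2 (j := 0) (m := 6) (Z := k64) a1 hT rfl (by decide +kernel)
  have hK := Q.inv h2 (l := 6) (Y := K64) hk (by decide +kernel)
  have a2 := Q.step h2 (j := 0) (m := 6) (Z := !![⟨8,8⟩, ⟨0,0⟩, ⟨0,0⟩, ⟨32,8⟩, ⟨4,-4⟩; ⟨0,0⟩, ⟨64,0⟩, ⟨0,0⟩, ⟨0,0⟩, ⟨0,0⟩; ⟨0,0⟩, ⟨0,0⟩, ⟨-64,0⟩, ⟨0,0⟩, ⟨0,0⟩; ⟨-16,-16⟩, ⟨0,0⟩, ⟨0,0⟩, ⟨32,16⟩, ⟨24,-24⟩; ⟨-80,-16⟩, ⟨0,0⟩, ⟨0,0⟩, ⟨48,0⟩, ⟨-24,-8⟩]) hz hk rfl (by decide +kernel)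
  have a3 := Q.step h2 (j := 0) (m := 6) (Z := !![⟨-8,-8⟩, ⟨0,0⟩, ⟨0,0⟩, ⟨32,8⟩, ⟨4,-4⟩; ⟨0,0⟩, ⟨64,0⟩, ⟨0,0⟩, ⟨0,0⟩, ⟨0,0⟩; ⟨0,0⟩, ⟨0,0⟩, ⟨64,0⟩, ⟨0,0⟩, ⟨0,0⟩; ⟨16,16⟩, ⟨0,0⟩, ⟨0,0⟩, ⟨32,16⟩, ⟨24,-24⟩; ⟨80,16⟩, ⟨0,0⟩, ⟨0,0⟩, ⟨48,0⟩, ⟨-24,-8⟩]) a2 hz rfl (by decide +kernel)
  have hw := Q.step h2 (j := 6) (m := 6) (Z := w64) a3 hK rfl (by decide +kernel)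
  obtain ⟨e, he⟩ : ∃ e : F, 2 ^ 6 * e = 1 := ⟨_, mul_inv_cancel₀ (pow_ne_zero 6 h2)⟩
  obtain ⟨A, a, b⟩ := core h h3 h31 hg (G := G.comap (Units.map E3)) (e := e) (by linear_combination he)
    (down ((hk.inM he).congr (by
      ext i j; fin_cases i <;> fin_cases j <;> simp [k64, E3, Kz, ev_mk] <;>
        first | ring1 | linear_combination he | (left; ring1))))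
    (down ((hw.inM he).congr (by
      ext i j; fin_cases i <;> fin_cases j <;> simp [w64, E3, Wz, ev_mk] <;>
        first | ring1 | linear_combination he | (left; ring1))))
    (down ((hx.inM (e := 1) (by simp)).congr (by
      ext i j; fin_cases i <;> fin_cases j <;> simp [xZ, E3, D3])))
  refine ⟨_, a, Rp.zero.2 ((congrArg E3 b).trans ?_)⟩
  ext i j; fin_cases i <;> fin_cases j <;> simp [RZ, E3, D3]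

theorem gamma {p : ℕ} {ω : F} (h : FH p ω) (hg : g * g = -11) {G : Subgroup (GL (Fin 5) F)}
    {U Ff X : GL (Fin 5) F} (UG : U ∈ G) (FG : Ff ∈ G) (XG : X ∈ G) (hU : Rp hg U 4 u16) (hF : Rp hg Ff 0 fZ)
    (hX : Rp hg X 0 xZ) : ∃ K ∈ G, Rp hg K 0 RZ := by
  have h2 := h.two
  have hu : Q hg G 4 u16 := ⟨_, UG, hU⟩
  have hf : Q hg G 0 fZ := ⟨_, FG, hF⟩
  have hx : Q hg G 0 xZ := ⟨_, XG, hX⟩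
  have hU := Q.inv h2 (l := 4) (Y := U16) hu (by decide +kernel)
  have ht := q_t h2 hu hU hf
  have hT := Q.inv h2 (l := 3) (Y := T8) ht (by decide +kernel)
  have hz := q_z h2 hu hU hf
  by_cases h3 : (3 : F) = 0
  · haveI : CharP F 3 := (CharP.charP_iff_prime_eq_zero Nat.prime_three).2 (by exact_mod_cast h3)
    rcases mul_self_eq_one_iff.1 (show g * g = 1 by linear_combination hg - 4 * h3) with e | e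
    · exact s3a h2 (ZMod.castHom (dvd_refl 3) F) (by rw [e, map_one]) hu hU hf hx
    · exact s3b h2 (ZMod.castHom (dvd_refl 3) F) (by rw [e, map_neg, map_one]) hu hU hf hx
  by_cases h31 : (31 : F) = 0
  · haveI : CharP F 31 := (CharP.charP_iff_prime_eq_zero (by norm_num)).2 (by exact_mod_cast h31)
    rcases mul_self_eq_mul_self_iff.1 (show g * g = 12 * 12 by linear_combination hg - 5 * h31) with e | e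
    · exact s31a h2 (ZMod.castHom (dvd_refl 31) F) (by rw [e, map_ofNat]) ht hT hz hx
    · exact s31b h2 (ZMod.castHom (dvd_refl 31) F) (by rw [e, map_neg, map_ofNat]) ht hT hz hx
  exact gen h h3 h31 ht hT hz hx

end Cfsg.Agent.H9.C11
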