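import Cfsg.Agent.H9.C11.Pl

/-! The dihedral trick in dimension three. -/

set_option autoImplicit false
set_option linter.unusedSimpArgs false
set_option linter.unusedSectionVars false
set_option linter.unusedVariables false

namespace Cfsg.Agent.H9.C11

open Matrix Cfsg.Agent.H5.T3
open Cfsg.Agent.H5.C11 (FH)

variable {F : Type*} [Field F]

def D3 (l : F) (A : Matrix (Fin 2) (Fin 2) F) : Matrix (Fin 3) (Fin 3) F :=
  !![l, 0, 0; 0, A 0 0, A 0 1; 0, A 1 0, A 1 1]

theorem D3_mul (l m : F) (A B : Matrix (Fin 2) (Fin 2) F) : D3 l A * D3 m B = D3 (l * m) (A * B) := by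
  ext i j; fin_cases i <;> fin_cases j <;> simp [D3, mul_apply, Fin.sum_univ_three, Fin.sum_univ_two]

theorem D3_one : D3 (1 : F) 1 = 1 := by
  ext i j; fin_cases i <;> fin_cases j <;> simp [D3]

def E2 : Matrix (Fin 2) (Fin 2) F →* Matrix (Fin 3) (Fin 3) F where
  toFun := D3 1
  map_one' := D3_one
  map_mul' A B := by rw [D3_mul, one_mul]

theorem cjq {p : ℕ} {ω : F} (h : FH p ω) {G : Subgroup (GL (Fin 3) F)} (hx : InM G (D3 1 !![0, -1; 1, -1]))
    (hR : ¬ InM G (D3 1 (-1))) {μ l a b c d : F} (hc : InM G (μ • D3 l !![a, b; c, d])) :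
    (-(a ^ 2 + b ^ 2 + c ^ 2 + d ^ 2) - a * b - c * d + a * c + b * d - a * d + 2 * b * c) *
      (-(a ^ 2 + b ^ 2 + c ^ 2 + d ^ 2) - a * b - c * d + a * c + b * d + 2 * a * d - b * c) = 0 := by
  have n0 : μ ^ 3 * (l * (a * d - b * c)) ≠ 0 := by
    obtain ⟨C, -, e⟩ := hc
    have := (Matrix.isUnit_iff_isUnit_det _).1 C.isUnit
    rw [e, det_smul] at this
    convert this.ne_zero using 2
    · simp
    · simp [D3, det_fin_three]; ring
  have n1 : μ ≠ 0 := fun e => n0 (by simp [e])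
  have n2 : l ≠ 0 := fun e => n0 (by simp [e])
  have n3 : a * d - b * c ≠ 0 := fun e => n0 (by simp [e])
  obtain ⟨i, hi⟩ : ∃ i, (a * d - b * c) * i = 1 := ⟨_, mul_inv_cancel₀ n3⟩
  have n4 : i ≠ 0 := fun e => by simp [e] at hi
  have k1 : !![a, b; c, d] * !![i * d, -(i * b); -(i * c), i * a] = 1 := by
    ext r s; fin_cases r <;> fin_cases s <;> simp [mul_apply, Fin.sum_univ_two] <;>
      first | ring1 | linear_combination hi
  let c0 : GL (Fin 2) F := ⟨_, _, k1, mul_eq_one_comm.1 k1⟩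
  have k2 : !![(0 : F), -1; 1, -1] * !![-1, 1; -1, 0] = 1 := by
    ext r s; fin_cases r <;> fin_cases s <;> simp [mul_apply, Fin.sum_univ_two]
  let y : GL (Fin 2) F := ⟨_, _, k2, mul_eq_one_comm.1 k2⟩
  have y3 : y ^ 3 = 1 := Units.ext (by
    ext r s; fin_cases r <;> fin_cases s <;> simp [y, pow_succ, mul_apply, Fin.sum_univ_two])
  have yd : GeneralLinearGroup.det y = 1 := Units.ext (by simp [y, det_fin_two])
  have hb : InM G (D3 1 (c0 * y * c0⁻¹).1) := by
    refine ((hc.mul hx).mul (hc.inv (Y := μ⁻¹ • D3 l⁻¹ c0⁻¹.1) ?_)).congr ?_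
    · rw [smul_mul_smul_comm, D3_mul, mul_inv_cancel₀ n1, mul_inv_cancel₀ n2, one_smul]
      exact (congrArg (D3 1) k1).trans D3_one
    · rw [smul_mul_assoc, smul_mul_smul_comm, D3_mul, D3_mul, mul_inv_cancel₀ n1, mul_one,
        mul_inv_cancel₀ n2, one_smul]
      rfl
  have k := plane3 h h.two (S := G.comap (Units.map E2) ⊓ GeneralLinearGroup.det.ker)
    (fun s hs => congrArg Units.val (MonoidHom.mem_ker.1 hs.2))
    (fun s hs e => hR ((mem_lift.1 hs.1).congr (congrArg (D3 1) e))) y3 (b := c0 * y * c0⁻¹)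
    (by rw [conj_pow, y3]; simp) ⟨mem_lift.2 hx, yd⟩
    ⟨mem_lift.2 hb, MonoidHom.mem_ker.2 (by rw [map_mul, map_mul, yd, map_inv]; simp)⟩
  have e : (c0 * y * c0⁻¹).1 = !![a, b; c, d] * !![0, -1; 1, -1] * !![i * d, -(i * b); -(i * c), i * a] := rfl
  rw [e] at k
  simp [y, det_fin_two, mul_apply, Fin.sum_univ_two] at k
  refine mul_left_cancel₀ (pow_ne_zero 2 n4) ?_
  first | linear_combination k | linear_combination -k

section Abs

variable {R : Type*} [Ring R] [Algebra F R] {W P : R} {s : F}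

/-- the powers of `W` -/
def MM (W P : R) (A B : F) : R := A • (1 : R) + B • W + (1 - A - B) • P

variable (h1 : P * P = P) (h2 : P * W = P) (h3 : W * P = P) (h4 : W * W = s • W - 1 + (2 - s) • P)
include h1 h2 h3 h4

theorem MM_pow (n : ℕ) : ∃ A B : F, A ^ 2 + s * A * B + B ^ 2 = 1 ∧ W ^ n = MM W P A B := by
  induction n with
  | zero => exact ⟨1, 0, by simp, by simp [MM]⟩
  | succ n ih =>
    obtain ⟨A, B, e1, e2⟩ := ih
    refine ⟨-B, A + s * B, by linear_combination e1, ?_⟩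
    simp only [pow_succ, e2, MM, add_mul, smul_mul_assoc, one_mul, h2, h4]
    module

theorem MM_sq (A B : F) : MM W P A B * MM W P A B = MM W P (A ^ 2 - B ^ 2) (2 * A * B + s * B ^ 2) := by
  simp only [MM, add_mul, mul_add, smul_mul_assoc, mul_smul_comm, one_mul, mul_one, h1, h2, h3, h4]
  module

end Abs

theorem half {H : Type*} [Group H] [Finite H] (w : H) :
    (∃ m : ℕ, w ^ m * w ^ m = 1 ∧ w ^ m ≠ 1) ∨ ∃ m : ℕ, w ^ m * w ^ m = w := by
  have o := orderOf_pos w
  obtain ⟨m, e | e⟩ := Nat.even_or_odd' (orderOf w)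
  · exact Or.inl ⟨m, by rw [← pow_add, ← two_mul, ← e, pow_orderOf_eq_one],
      pow_ne_one_of_lt_orderOf (by omega) (by omega)⟩
  · exact Or.inr ⟨m + 1, by
      rw [← pow_add, show m + 1 + (m + 1) = orderOf w + 1 by omega, pow_succ, pow_orderOf_eq_one, one_mul]⟩

end Cfsg.Agent.H9.C11
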