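import Cfsg.Agent.H9.C11.G1

/-! The generic characteristic. -/

set_option autoImplicit false
set_option linter.unusedSimpArgs false
set_option linter.unusedSectionVars false
set_option linter.unusedVariables false

namespace Cfsg.Agent.H9.C11

open Matrix Cfsg.Agent.H5.T3
open Cfsg.Agent.H5.C11 (FH)

variable {F : Type*} [Field F] {g : F}

def Kz (g : F) : Matrix (Fin 3) (Fin 3) F :=
  !![-8 - 8 * g, -32 - 8 * g, -4 + 4 * g; -16 - 16 * g, 32 + 16 * g, 24 - 24 * g; -80 - 16 * g, 48, -24 - 8 * g]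

def Wz (g : F) : Matrix (Fin 3) (Fin 3) F :=
  !![-40, -10 + 2 * g, 30 + 6 * g; -48, 84 - 4 * g, -60 - 12 * g; -64 + 16 * g, 12 - 12 * g, -60 + 4 * g]

def Pz (g : F) : Matrix (Fin 3) (Fin 3) F :=
  !![0, 0, 0; 0, 31 - g, -15 - 3 * g; 0, 3 - 3 * g, -5 + g]

def Lz (g : F) : Matrix (Fin 3) (Fin 3) F :=
  !![-8 - 8 * g, 32 + 8 * g, 4 - 4 * g; 16 + 16 * g, 32 + 16 * g, 24 - 24 * g; 80 + 16 * g, 48, -24 - 8 * g]

def Nz (g : F) : Matrix (Fin 3) (Fin 3) F :=
  !![0, 0, 0; 0, 448 + 320 * g, 576 - 576 * g; 0, 384, -512 - 128 * g]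

theorem PP (hg : g * g = -11) : Pz g * Pz g = (26 : F) • Pz g := by
  ext i j; fin_cases i <;> fin_cases j <;> simp [Pz, mul_apply, Fin.sum_univ_three] <;> grind

theorem PW (hg : g * g = -11) : Pz g * Wz g = (64 : F) • Pz g := by
  ext i j; fin_cases i <;> fin_cases j <;> simp [Pz, Wz, mul_apply, Fin.sum_univ_three] <;> grind

theorem WP (hg : g * g = -11) : Wz g * Pz g = (64 : F) • Pz g := by
  ext i j; fin_cases i <;> fin_cases j <;> simp [Pz, Wz, mul_apply, Fin.sum_univ_three] <;> grind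

theorem WW (hg : g * g = -11) : Wz g * Wz g = (-80 : F) • Wz g - (4096 : F) • 1 + (512 : F) • Pz g := by
  ext i j; fin_cases i <;> fin_cases j <;> simp [Pz, Wz, mul_apply, Fin.sum_univ_three] <;> grind

theorem WK (hg : g * g = -11) : Wz g * Kz g = (64 : F) • Lz g := by
  ext i j; fin_cases i <;> fin_cases j <;> simp [Kz, Wz, Lz, mul_apply, Fin.sum_univ_three] <;> grind

theorem PK (hg : g * g = -11) : Pz g * Kz g = Nz g := by
  ext i j; fin_cases i <;> fin_cases j <;> simp [Kz, Pz, Nz, mul_apply, Fin.sum_univ_three] <;> grind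

theorem cB (B : F) : (26 * B) • (Kz g + Lz g) + (1 - 2 * B) • Nz g = (32 : F) • D3 (-13 * B - 13 * g * B)
    !![14 + 10 * g + 24 * B + 6 * g * B, 18 - 18 * g + 3 * B - 3 * g * B; 12 + 54 * B,
      -16 - 4 * g - 7 * B - 5 * g * B] := by
  ext i j; fin_cases i <;> fin_cases j <;> simp [Kz, Lz, Nz, D3] <;> ring

theorem cK : (-13 : F) • (1 : Matrix (Fin 3) (Fin 3) F) + Pz g = D3 (-13) !![18 - g, -15 - 3 * g; 3 - 3 * g, -18 + g] := by
  ext i j; fin_cases i <;> fin_cases j <;> simp [Pz, D3] <;> ring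

theorem core {p : ℕ} {ω : F} (h : FH p ω) (h3 : (3 : F) ≠ 0) (h31 : (31 : F) ≠ 0) (hg : g * g = -11)
    {G : Subgroup (GL (Fin 3) F)} {e : F} (he : 64 * e = 1) (hk : InM G (e • Kz g)) (hw : InM G (e • Wz g))
    (hx : InM G (D3 1 !![0, -1; 1, -1])) : InM G (D3 1 (-1)) := by
  by_contra hR
  haveI := h.finF
  have h2 := h.two
  have h11 := h.eleven
  have h13 : (13 : F) ≠ 0 := by
    exact_mod_cast h.ne_zero (n := 13) (by norm_num) (by rcases h.cd with k | k <;> omega)
  have h73 : (73 : F) ≠ 0 := by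
    exact_mod_cast h.ne_zero (n := 73) (by norm_num) (by rcases h.cd with k | k <;> omega)
  have e0 : e ≠ 0 := fun k => by simp [k] at he
  obtain ⟨i, hi⟩ : ∃ i : F, 26 * i = 1 :=
    ⟨_, mul_inv_cancel₀ (by rw [show (26 : F) = 2 * 13 by norm_num]; exact mul_ne_zero h2 h13)⟩
  have h1 : i • Pz g * i • Pz g = i • Pz g := by
    rw [smul_mul_smul_comm, PP hg]; match_scalars; linear_combination i * hi
  have h2' : i • Pz g * e • Wz g = i • Pz g := by
    rw [smul_mul_smul_comm, PW hg]; match_scalars; linear_combination i * he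
  have h3' : e • Wz g * i • Pz g = i • Pz g := by
    rw [smul_mul_smul_comm, WP hg]; match_scalars; linear_combination i * he
  have h4 : e • Wz g * e • Wz g = (-80 * e) • e • Wz g - 1 + (2 - -80 * e) • i • Pz g := by
    rw [smul_mul_smul_comm, WW hg]; match_scalars
    · ring
    · linear_combination (-(64 * e + 1)) * he
    · linear_combination (8 * e + 2 * i) * he - 8 * e * hi
  have inj : ∀ {A B A' B' : F}, MM (e • Wz g) (i • Pz g) A B = MM (e • Wz g) (i • Pz g) A' B' →
      A = A' ∧ B = B' := by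
    intro A B A' B' k
    have k1 := congrFun (congrFun k 1) 0
    have k2 := congrFun (congrFun k 0) 0
    simp only [MM, Wz, Pz, Matrix.add_apply, Matrix.smul_apply, smul_eq_mul, one_apply_eq, of_apply, cons_val',
      cons_val_zero, cons_val_one, one_apply_ne (show (1 : Fin 3) ≠ 0 by decide), cons_val_fin_one] at k1 k2
    have k3 : B = B' := mul_left_cancel₀ h3 (by linear_combination (-4) * k1 - 3 * (B - B') * he)
    exact ⟨by rw [k3] at k2; linear_combination k2, k3⟩
  obtain ⟨w, wG, ew⟩ := hw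
  rcases half w with ⟨m, k1, k2⟩ | ⟨m, k1⟩ <;> obtain ⟨A, B, n1, n2⟩ := MM_pow h1 h2' h3' h4 m <;>
    have n3 := congrArg Units.val k1 <;> rw [Units.val_mul, Units.val_pow_eq_pow_val, ew, n2, MM_sq h1 h2' h3' h4] at n3 <;>
    have n4 := ((InM.of wG).pow m).congr ((congrArg (· ^ m) ew).trans n2)
  · obtain ⟨a1, a2⟩ := inj (A' := 1) (B' := 0) (n3.trans (by simp [MM]))
    have b0 : B = 0 := by
      by_contra b0
      have a3 : 2 * A - 80 * e * B = 0 := mul_left_cancel₀ b0 (by linear_combination a2)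
      have a4 : -80 * e * A + 2 * B = 0 := mul_left_cancel₀ b0 (by linear_combination n1 - a1)
      refine mul_ne_zero (mul_ne_zero h3 h13) b0 ?_
      linear_combination 32 * a4 + 1280 * e * a3 + 25 * B * (64 * e + 1) * he
    subst b0
    have a3 : A = -1 := by
      refine (mul_self_eq_one_iff.1 (by linear_combination a1)).resolve_left fun a3 => k2 (Units.ext ?_)
      rw [Units.val_pow_eq_pow_val, ew, n2, a3]; simp [MM]
    subst a3
    have k := cjq h hx hR (n4.congr (show _ = (2 * i) • _ by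
      rw [← cK (g := g), MM]; match_scalars <;> first | ring1 | linear_combination hi))
    rcases mul_eq_zero.1 k with k | k
    · exact h11 (by linear_combination k + hg)
    · exact mul_ne_zero (pow_ne_zero 4 h2) h31 (by linear_combination -k - 31 * hg)
  · obtain ⟨a1, a2⟩ := inj (A' := 0) (B' := 1) (n3.trans (by simp [MM]))
    have b0 : B ≠ 0 := fun b0 => by simp [b0] at a2
    have a3 : A = B := by
      refine mul_left_cancel₀ (mul_ne_zero b0 h13) ?_
      linear_combination 4 * a1 + 4 * a2 - 4 * n1 - 5 * B * (A - B) * he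
    subst a3
    have hB : 3 * A ^ 2 = 4 := by linear_combination 4 * a2 + 5 * A ^ 2 * he
    have k := cjq h hx hR ((n4.mul hk).congr (show _ = (e * i * 32) • _ by
      rw [mul_smul, ← cB (g := g) A, MM]
      simp only [add_mul, smul_mul_assoc, mul_smul_comm, one_mul, WK hg, PK hg]
      match_scalars
      · linear_combination (-A * e) * hi
      · linear_combination (-A * e) * hi + A * e * he
      · ring))
    have g1 : g - 1 ≠ 0 := fun k => mul_ne_zero (pow_ne_zero 2 h2) h3 (by linear_combination hg - (g + 1) * k)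
    have n := mul_ne_zero (mul_ne_zero (mul_ne_zero (pow_ne_zero 2 h2) h3) h11) (pow_ne_zero 2 h13)
    rcases mul_eq_zero.1 k with k | k
    · have k' : 512 - 777 * A = 0 := mul_left_cancel₀ (mul_ne_zero (pow_ne_zero 2 h2) g1) (by
        linear_combination 3 * k - (-444 + 138 * A - 21 * A ^ 2) * hg - (-1400 + 152 * g) * hB)
      exact mul_ne_zero n h73 (by linear_combination (-777 ^ 2) * hB - 3 * (512 + 777 * A) * k')
    · have k' : 64 + 93 * A = 0 := mul_left_cancel₀ (mul_ne_zero (pow_ne_zero 5 h2) g1) (by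
        linear_combination 3 * k - (-804 - 528 * A - 291 * A ^ 2) * hg - (-1400 + 152 * g) * hB)
      exact n (by linear_combination (-93 ^ 2) * hB - 3 * (64 - 93 * A) * k')

end Cfsg.Agent.H9.C11
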