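import Cfsg.Agent.H5.C11.T

/-! Subgroups of `SL₂` without `-1`: elements of order three have a common fixed point. -/

set_option autoImplicit false
set_option linter.unusedSimpArgs false
set_option linter.unusedSectionVars false
set_option linter.unusedVariables false

namespace Cfsg.Agent.H9.C11

open Matrix OnePoint Cfsg.Agent.H5.T3 Cfsg.Agent.H5.C5 Cfsg.Agent.H8 Cfsg.Agent.H7
open Cfsg.Agent.H5.C11 (FH)
open scoped MatrixGroups

local notation "pk" => Matrix.ProjGenLinGroup.mk

variable {F : Type*} [Field F]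

theorem fix_det {K : Type*} [Field K] [Algebra F K] {a b : GL (Fin 2) F} (z : OnePoint K) (e1 : pk a • z = z)
    (e2 : pk b • z = z) : (a.1 * b.1 - b.1 * a.1).det = 0 := by
  cases z with
  | infty =>
    rw [smul_infty_eq_infty] at e1 e2
    simp [det_fin_two, mul_apply, Fin.sum_univ_two, e1, e2, mul_comm]
  | coe w =>
    rw [smul_coe_eq_coe] at e1 e2
    refine (algebraMap F K).injective ?_
    simp only [det_fin_two, Matrix.sub_apply, mul_apply, Fin.sum_univ_two, map_sub, map_mul, map_add, map_zero]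
    generalize algebraMap F K (a.1 0 0) = a0 at *
    generalize algebraMap F K (a.1 0 1) = a1 at *
    generalize algebraMap F K (a.1 1 0) = a2 at *
    generalize algebraMap F K (a.1 1 1) = a3 at *
    generalize algebraMap F K (b.1 0 0) = b0 at *
    generalize algebraMap F K (b.1 0 1) = b1 at *
    generalize algebraMap F K (b.1 1 0) = b2 at *
    generalize algebraMap F K (b.1 1 1) = b3 at *
    have h1 : (a1 * b2 - b1 * a2) * w + (a0 * b1 + a1 * b3 - (b0 * a1 + b1 * a3)) = 0 := by
      linear_combination (b2 * w + b3 - b0) * e1 + (a0 - a2 * w - a3) * e2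
    have h2 : (a2 * b0 + a3 * b2 - (b2 * a0 + b3 * a2)) * w - (a1 * b2 - b1 * a2) = 0 := by
      linear_combination a2 * e2 - b2 * e1
    linear_combination (a1 * b2 - b1 * a2) * h2 - (a2 * b0 + a3 * b2 - (b2 * a0 + b3 * a2)) * h1

theorem plane3 {p : ℕ} {ω : F} (h : FH p ω) (p2 : (2 : F) ≠ 0) {S : Subgroup (GL (Fin 2) F)}
    (hd : ∀ s ∈ S, s.1.det = 1) (hn : ∀ s ∈ S, s.1 ≠ -1) {a b : GL (Fin 2) F} (a3 : a ^ 3 = 1) (b3 : b ^ 3 = 1)
    (aS : a ∈ S) (bS : b ∈ S) : (a.1 * b.1 - b.1 * a.1).det = 0 := by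
  haveI := h.char
  haveI := h.finF
  haveI : Fact p.Prime := ⟨h.prime⟩
  obtain ⟨X, hX⟩ : ∃ X, X = S.map pk := ⟨_, rfl⟩
  have aX : pk a ∈ X := hX ▸ ⟨a, aS, rfl⟩
  have bX : pk b ∈ X := hX ▸ ⟨b, bS, rfl⟩
  have odd : ∀ y ∈ X, y * y = 1 → y = 1 := by
    rw [hX]
    rintro _ ⟨s, hs, rfl⟩ e
    rw [← map_mul, mk_eq_one_iff] at e
    have d := hd s hs
    have n := hn _ (S.mul_mem hs hs)
    simp only [Units.val_mul, mul_apply, Fin.sum_univ_two, det_fin_two] at e d n
    obtain ⟨e1, e2, e3⟩ := e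
    rw [mk_eq_one_iff]
    by_cases t : s.1 0 0 + s.1 1 1 = 0
    · refine absurd ?_ n
      ext i j
      fin_cases i <;> fin_cases j <;> simp [mul_apply, Fin.sum_univ_two]
      · linear_combination s.1 0 0 * t - d
      · linear_combination s.1 0 1 * t
      · linear_combination s.1 1 0 * t
      · linear_combination s.1 1 1 * t - d
    · exact ⟨mul_left_cancel₀ t (by linear_combination e1), mul_left_cancel₀ t (by linear_combination e2),
        mul_left_cancel₀ t (by linear_combination e3)⟩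
  have pair : ∀ {K : Type _} [Field K] [Algebra F K] (z y : OnePoint K),
      X ≤ pairStab F z y → (a.1 * b.1 - b.1 * a.1).det = 0 := by
    intro K _ _ z y hH
    have key : ∀ c : GL (Fin 2) F, c ^ 3 = 1 → pk c ∈ X → pk c • z = z := fun c c3 cX => by
      have h1 : pk c * pk c ∈ MulAction.stabilizer PGL(2, F) z := by
        rw [MulAction.mem_stabilizer_iff, mul_smul]
        rcases hH cX with ⟨e1, e2⟩ | ⟨e1, e2⟩
        · rw [e1, e1]
        · rw [e1, e2]
      have h2 := pow_mem h1 2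
      rwa [← sq, ← pow_mul, ← map_pow, show 2 * 2 = 3 + 1 from rfl, pow_succ, c3, one_mul] at h2
    exact fix_det z (key a a3 aX) (key b b3 bX)
  rcases H3.dickson2 p X with ⟨z, hx⟩ | ⟨z, y, -, hx⟩ | ⟨t, a', b', -, hx⟩ | hx | ⟨k, g, -, hx⟩
  · exact fix_det z (hx aX) (hx bX)
  · exact pair z y hx
  · exact pair _ _ hx
  · have k1 : 2 ∣ Nat.card X := by rcases hx.2.2 with k | k | k <;> rw [k.1] <;> norm_num
    have k0 : Nat.card X ≠ 0 := by rcases hx.2.2 with k | k | k <;> rw [k.1] <;> norm_num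
    haveI := Nat.finite_of_card_ne_zero k0
    obtain ⟨y, hy⟩ := exists_prime_orderOf_dvd_card' 2 k1
    have k2 := odd y.1 y.2 (by
      have := pow_orderOf_eq_one y
      rw [hy, sq] at this
      exact congrArg Subtype.val this)
    rw [show y = 1 from Subtype.ext k2, orderOf_one] at hy
    omega
  · let J : GL (Fin 2) F := mat 0 1 (-1) 0 (by simp)
    have J1 : pk J ∈ PS k := mem_PS.2 ⟨J, rfl, fun i j => by
      fin_cases i <;> fin_cases j <;> simp [J, mat], 1, one_mem _, by simp [J, mat]⟩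
    have J2 : g * pk J * g⁻¹ ∈ X := by
      rcases hx with hx | hx <;> rw [hx, mem_cj] <;> simp only [mul_assoc, inv_mul_cancel_left,
        inv_mul_cancel, mul_one]
      exacts [J1, PS_le_PG _ J1]
    have J3 : pk J * pk J = 1 := by
      rw [← map_mul, mk_eq_one_iff]; simp [J, mat, mul_apply, Fin.sum_univ_two]
    have J4 := odd _ J2 (by rw [conj_mul, J3]; simp)
    rw [conj_eq_one_iff, mk_eq_one_iff] at J4
    simpa [J, mat] using J4.1

end Cfsg.Agent.H9.C11
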