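import Cfsg.Agent.H9.C11.Ga
import Cfsg.Agent.H5.C11.XG

/-! Involutions centralising the quaternion group. -/

set_option autoImplicit false

namespace Cfsg.Agent.H9.C11

open Matrix Cfsg.Agent.L.X11

theorem X_all {F : Type*} [Field F] {C : Type*} [Group C] {p : ℕ} {ω g : F} {π : C →* GL (Fin 5) F}
    {ψ : C →* GL (Fin 6) F} {σ u f : C} (h : XS p ω g π ψ σ u f) (c : C) (hc : InY u f c)
    (c2 : c * c = 1 ∨ c * c = σ) : c = 1 ∨ c = σ :=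
  H5.C11.X_of_gamma h (fun x hx =>
    let ⟨_, ⟨k, e⟩, r⟩ := gamma h.fh h.hg (G := π.range) ⟨u, rfl⟩ ⟨f, rfl⟩ ⟨x, rfl⟩ h.hu h.hf hx
    ⟨k, e ▸ r⟩) c hc c2

end Cfsg.Agent.H9.C11
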